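import Mathlib
import Cfsg.Agent.Lib.Helper58.QSim.MonoDefs
import Cfsg.Agent.Lib.Helper94.QSim.IsoCop

/-!
# Project QSim (S5981): package [MBRIDGE]: `PkgHMono → PkgMono`
-/

set_option autoImplicit false
open scoped MatrixGroups Matrix

namespace Cfsg.Agent.Lib.Helper38.QSim

open Polynomial Module Cfsg.Agent.Lib.Helper58.QSim

universe u

/-- polynomials in intertwined endomorphisms are intertwined -/
theorem aeval_intertwine {F : Type*} [Field F] {W V : Type*} [AddCommGroup W] [Module F W]
    [AddCommGroup V] [Module F V] (ι : W →ₗ[F] V) (S : Module.End F W) (T : Module.End F V)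
    (h : ∀ w, ι (S w) = T (ι w)) (p : F[X]) (w : W) :
    ι (aeval S p w) = aeval T p (ι w) := by
  have hpow : ∀ (n : ℕ) (w : W), ι ((S ^ n) w) = (T ^ n) (ι w) := by
    intro n
    induction n with
    | zero => intro w; simp
    | succ n ih =>
      intro w
      rw [pow_succ, Module.End.mul_apply, ih, h, pow_succ, Module.End.mul_apply]
  rw [aeval_eq_sum_range, aeval_eq_sum_range]
  simp only [LinearMap.sum_apply, LinearMap.smul_apply, map_sum, map_smul, hpow]

/-- an irreducible polynomial of degree `≥ 2` has no root in the base field -/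
theorem no_root {F : Type u} [Field F] {f : F[X]} (hf : Irreducible f) (hd : 2 ≤ f.natDegree)
    (c : F) : f.eval c ≠ 0 := by
  intro h0
  have h1 := Polynomial.degree_eq_one_of_irreducible_of_root hf h0
  have h2 : f.natDegree = 1 := Polynomial.natDegree_eq_of_degree_eq_some h1
  omega

/-- The abstract core: `W` with an invertible endomorphism `S` killed by `f`, adjoint `S⁻¹`. -/
theorem mono_core (hH : PkgHMono.{u}) {F W : Type u} [Field F] [Fintype F] [AddCommGroup W]
    [Module F W] [FiniteDimensional F W]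
    (β : LinearMap.BilinForm F W) (S S' : Module.End F W) (f : F[X]) (e k : ℕ)
    (hodd : Odd (Fintype.card F))
    (hsymm : ∀ u v, β u v = β v u) (hnd : ∀ u, u ≠ 0 → ∃ v, β u v ≠ 0)
    (hS'S : S' * S = 1) (hadj : ∀ u v, β (S u) v = β u (S' v))
    (hf : Irreducible f) (hdeg : f.natDegree = 2 * e) (he : 1 ≤ e) (hrev : f ∣ f.reverse)
    (hfS : aeval S f = 0) (hrank : finrank F W = k * (2 * e)) :
    ∃ M : Subgroup (W ≃ₗ[F] W), (∀ m ∈ M, ∀ u v, β (m u) (m v) = β u v) ∧
      ((Fintype.card F) ^ e + 1) ^ k * k.factorial ∣ Nat.card M := by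
  classical
  have hfact : Fact (Irreducible f) := ⟨hf⟩
  have hf0 : f ≠ 0 := hf.ne_zero
  have hd2 : 2 ≤ f.natDegree := by omega
  have hfinK : Module.Finite F (AdjoinRoot f) := (AdjoinRoot.powerBasis hf0).finite
  have hFinK : Finite (AdjoinRoot f) := Module.finite_of_finite F
  let _ : Fintype (AdjoinRoot f) := Fintype.ofFinite _
  have hrkK : finrank F (AdjoinRoot f) = 2 * e := by
    rw [(AdjoinRoot.powerBasis hf0).finrank, AdjoinRoot.powerBasis_dim, hdeg]
  have hcardK : Fintype.card (AdjoinRoot f) = Fintype.card F ^ (2 * e) := by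
    rw [← hrkK]
    exact Module.card_eq_pow_finrank
  -- the root
  have hroot : aeval (AdjoinRoot.root f) f = 0 := AdjoinRoot.aeval_eq f ▸ AdjoinRoot.mk_self
  have hnoroot : ∀ c : F, AdjoinRoot.root f ≠ algebraMap F (AdjoinRoot f) c := by
    intro c hc
    rw [hc, aeval_algebraMap_apply] at hroot
    have h1 : algebraMap F (AdjoinRoot f) (aeval c f) = algebraMap F (AdjoinRoot f) 0 := by
      rw [hroot, map_zero]
    have h2 := (algebraMap F (AdjoinRoot f)).injective h1
    exact no_root hf hd2 c (by simpa using h2)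
  have hroot0 : AdjoinRoot.root f ≠ 0 := by
    have := hnoroot 0
    rwa [map_zero] at this
  have hrootinv : aeval (AdjoinRoot.root f)⁻¹ f = 0 := by
    obtain ⟨c, hc⟩ := hrev
    have h1 : aeval (AdjoinRoot.root f) f.reverse = 0 := by
      rw [hc, map_mul, hroot, zero_mul]
    rw [Cfsg.Agent.Lib.Helper94.QSim.aeval_reverse_eq (mul_inv_cancel₀ hroot0) f] at h1
    rcases mul_eq_zero.1 h1 with h | h
    · exact absurd (pow_eq_zero_iff (n := f.natDegree) (by omega) |>.1 h) hroot0
    · exact h
  -- the involution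
  let τ : AdjoinRoot f →ₐ[F] AdjoinRoot f :=
    AdjoinRoot.liftAlgHom f (Algebra.ofId F (AdjoinRoot f)) (AdjoinRoot.root f)⁻¹ hrootinv
  have hτroot : τ (AdjoinRoot.root f) = (AdjoinRoot.root f)⁻¹ :=
    AdjoinRoot.liftAlgHom_root f _ _ hrootinv
  have hττ : τ.comp τ = AlgHom.id F (AdjoinRoot f) := by
    apply AdjoinRoot.algHom_ext
    rw [AlgHom.comp_apply, hτroot, map_inv₀, hτroot, inv_inv]
    rfl
  let σ : AdjoinRoot f ≃ₐ[F] AdjoinRoot f := AlgEquiv.ofAlgHom τ τ hττ hττ
  have hσ : ∀ a, σ a = τ a := fun a => rfl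
  have hσσ : ∀ a, σ (σ a) = a := by
    intro a
    have := congrArg (fun g : AdjoinRoot f →ₐ[F] AdjoinRoot f => g a) hττ
    exact this
  have hσne : ∃ a, σ a ≠ a := by
    refine ⟨AdjoinRoot.root f, ?_⟩
    rw [hσ, hτroot]
    intro h
    have h1 : AdjoinRoot.root f * AdjoinRoot.root f = 1 := by
      nth_rewrite 1 [← h]
      exact inv_mul_cancel₀ hroot0
    have h2 : (AdjoinRoot.root f - 1) * (AdjoinRoot.root f + 1) = 0 := by
      linear_combination h1
    rcases mul_eq_zero.1 h2 with h3 | h3
    · apply hnoroot 1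
      rw [map_one]
      exact sub_eq_zero.1 h3
    · apply hnoroot (-1)
      rw [map_neg, map_one]
      exact eq_neg_of_add_eq_zero_left h3
  -- the action
  let φ : AdjoinRoot f →ₐ[F] Module.End F W :=
    Ideal.Quotient.liftₐ (Ideal.span {f}) (aeval S) (by
      intro a ha
      obtain ⟨c, rfl⟩ := Ideal.mem_span_singleton.1 ha
      rw [map_mul, hfS, zero_mul])
  have hφroot : φ (AdjoinRoot.root f) = S := by
    show aeval S (X : F[X]) = S
    exact aeval_X S
  have hφinv : φ (AdjoinRoot.root f)⁻¹ = S' := by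
    have h1 : φ (AdjoinRoot.root f) * φ (AdjoinRoot.root f)⁻¹ = 1 := by
      rw [← map_mul, mul_inv_cancel₀ hroot0, map_one]
    rw [hφroot] at h1
    calc φ (AdjoinRoot.root f)⁻¹ = (S' * S) * φ (AdjoinRoot.root f)⁻¹ := by rw [hS'S, one_mul]
      _ = S' * (S * φ (AdjoinRoot.root f)⁻¹) := by rw [mul_assoc]
      _ = S' := by rw [h1, mul_one]
  let _ : Module (AdjoinRoot f) W := Module.compHom W (φ : AdjoinRoot f →+* Module.End F W)
  have hsmul : ∀ (a : AdjoinRoot f) (w : W), a • w = φ a w := fun a w => rfl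
  have htower : IsScalarTower F (AdjoinRoot f) W := ⟨fun c a w => by
    rw [hsmul, hsmul, map_smul]
    rfl⟩
  have hfinW : Module.Finite (AdjoinRoot f) W := Module.Finite.of_restrictScalars_finite F _ W
  have hrkW : finrank (AdjoinRoot f) W = k := by
    have h1 := Module.finrank_mul_finrank F (AdjoinRoot f) W
    rw [hrkK, hrank, mul_comm] at h1
    exact Nat.eq_of_mul_eq_mul_right (by omega) h1
  -- the adjoint property
  have hadjK : ∀ (a : AdjoinRoot f) (u v : W), β (a • u) v = β u (σ a • v) := by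
    let A : Subalgebra F (AdjoinRoot f) :=
      { carrier := {a | ∀ u v, β (a • u) v = β u (σ a • v)}
        mul_mem' := by
          intro a b ha hb u v
          rw [mul_smul, ha, hb, map_mul, mul_comm (σ a) (σ b), mul_smul]
        one_mem' := by
          intro u v
          rw [map_one, one_smul, one_smul]
        add_mem' := by
          intro a b ha hb u v
          rw [add_smul, map_add, LinearMap.add_apply, ha, hb, map_add, add_smul, map_add]
        zero_mem' := by
          intro u v
          rw [map_zero, zero_smul, zero_smul, map_zero, LinearMap.zero_apply, map_zero]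
        algebraMap_mem' := by
          intro c u v
          rw [AlgEquiv.commutes, algebraMap_smul, algebraMap_smul, map_smul, map_smul,
            LinearMap.smul_apply] }
    have hrootA : AdjoinRoot.root f ∈ A := by
      intro u v
      rw [hsmul, hsmul, hσ, hτroot, hφroot, hφinv]
      exact hadj u v
    have hA : A = ⊤ := by
      apply top_unique
      rw [← AdjoinRoot.adjoinRoot_eq_top (f := f)]
      apply Algebra.adjoin_le
      intro x hx
      rw [Set.mem_singleton_iff] at hx
      rw [hx]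
      exact hrootA
    intro a
    have : a ∈ A := by
      rw [hA]
      trivial
    exact this
  exact hH F (AdjoinRoot f) W σ β e k hodd hcardK hσσ hσne hsymm hnd hadjK hrkW

/-- The linear-map version of [MONO]. -/
theorem mono_lin (hH : PkgHMono.{u}) {F V : Type u} [Field F] [Fintype F] [AddCommGroup V]
    [Module F V] [FiniteDimensional F V]
    (B : LinearMap.BilinForm F V) (T T' : Module.End F V) (f : F[X]) (e k : ℕ)
    (hodd : Odd (Fintype.card F))
    (hsymm : ∀ u v, B u v = B v u) (hnd : ∀ u, u ≠ 0 → ∃ v, B u v ≠ 0)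
    (hTT' : T * T' = 1) (hT'T : T' * T = 1) (hiso : ∀ u v, B (T u) (T v) = B u v)
    (hf : Irreducible f) (hdeg : f.natDegree = 2 * e) (he : 1 ≤ e) (hrev : f ∣ f.reverse)
    (hfT : aeval T f * (T - 1) = 0) (hrank : finrank F (LinearMap.range (T - 1)) = k * (2 * e)) :
    ∃ M : Subgroup (V ≃ₗ[F] V), (∀ m ∈ M, ∀ u v, B (m u) (m v) = B u v) ∧
      ((Fintype.card F) ^ e + 1) ^ k * k.factorial ∣ Nat.card M := by
  classical
  have hd2 : 2 ≤ f.natDegree := by omega
  have hTT'a : ∀ v, T (T' v) = v := fun v => by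
    have := congrArg (fun g : Module.End F V => g v) hTT'
    exact this
  have hT'Ta : ∀ v, T' (T v) = v := fun v => by
    have := congrArg (fun g : Module.End F V => g v) hT'T
    exact this
  have hN : ∀ v, (T - 1) v = T v - v := fun v => rfl
  have hTR : ∀ x ∈ LinearMap.range (T - 1), T x ∈ LinearMap.range (T - 1) := by
    rintro x ⟨u, rfl⟩
    refine ⟨T u, ?_⟩
    rw [hN, hN, map_sub]
  have hT'R : ∀ x ∈ LinearMap.range (T - 1), T' x ∈ LinearMap.range (T - 1) := by
    rintro x ⟨u, rfl⟩
    refine ⟨T' u, ?_⟩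
    rw [hN, hN, map_sub, hTT'a, hT'Ta]
  have hadj : ∀ u v, B (T u) v = B u (T' v) := fun u v => by
    have := hiso u (T' v)
    rw [hTT'a] at this
    exact this
  -- orthogonality
  have horth : ∀ r ∈ LinearMap.range (T - 1), ∀ c ∈ LinearMap.ker (T - 1), B r c = 0 := by
    rintro r ⟨u, rfl⟩ c hc
    rw [LinearMap.mem_ker, hN, sub_eq_zero] at hc
    have hc' : T' c = c := by
      nth_rewrite 1 [← hc]
      exact hT'Ta c
    rw [hN, map_sub, LinearMap.sub_apply, hadj, hc', sub_self]
  have hperp : ∀ v, (∀ r ∈ LinearMap.range (T - 1), B r v = 0) → v ∈ LinearMap.ker (T - 1) := by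
    intro v hv
    have h1 : ∀ u, B u (T' v - v) = 0 := by
      intro u
      have := hv ((T - 1) u) ⟨u, rfl⟩
      rw [hN, map_sub, LinearMap.sub_apply, hadj] at this
      rw [map_sub]
      exact this
    have h2 : T' v - v = 0 := by
      by_contra h
      obtain ⟨w, hw⟩ := hnd _ h
      apply hw
      rw [hsymm]
      exact h1 w
    rw [LinearMap.mem_ker, hN, sub_eq_zero]
    have h3 : T' v = v := sub_eq_zero.1 h2
    nth_rewrite 1 [← h3]
    exact hTT'a v
  have hdisj : ∀ v, v ∈ LinearMap.range (T - 1) → v ∈ LinearMap.ker (T - 1) → v = 0 := by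
    intro v hvR hvK
    rw [LinearMap.mem_ker, hN, sub_eq_zero] at hvK
    have h1 : aeval T f v = f.eval 1 • v :=
      Module.End.aeval_apply_of_mem_apply_eq_smul (by rw [one_smul]; exact hvK)
    obtain ⟨u, rfl⟩ := hvR
    have h2 : aeval T f ((T - 1) u) = 0 := by
      have := congrArg (fun g : Module.End F V => g u) hfT
      exact this
    rw [h2] at h1
    rcases smul_eq_zero.1 h1.symm with h | h
    · exact absurd h (no_root hf hd2 1)
    · exact h
  -- the restricted data
  let S : Module.End F (LinearMap.range (T - 1)) := T.restrict hTR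
  let S' : Module.End F (LinearMap.range (T - 1)) := T'.restrict hT'R
  let β : LinearMap.BilinForm F (LinearMap.range (T - 1)) := B.restrict (LinearMap.range (T - 1))
  have hβ : ∀ u v : LinearMap.range (T - 1), β u v = B u v := fun u v => rfl
  have hSa : ∀ w : LinearMap.range (T - 1), ((S w : LinearMap.range (T - 1)) : V) = T w :=
    fun w => rfl
  have hS'a : ∀ w : LinearMap.range (T - 1), ((S' w : LinearMap.range (T - 1)) : V) = T' w :=
    fun w => rfl
  have hβnd : ∀ u : LinearMap.range (T - 1), u ≠ 0 → ∃ v, β u v ≠ 0 := by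
    intro u hu
    by_contra hcon
    push Not at hcon
    apply hu
    have h1 : (u : V) ∈ LinearMap.ker (T - 1) := hperp u (fun r hr => by
      rw [hsymm]
      exact hcon ⟨r, hr⟩)
    exact Subtype.ext (hdisj u u.2 h1)
  have hS'S : S' * S = 1 := by
    apply LinearMap.ext
    intro w
    apply Subtype.ext
    rw [Module.End.mul_apply, hS'a, hSa, hT'Ta]
    rfl
  have hfS : aeval S f = 0 := by
    apply LinearMap.ext
    intro w
    apply Subtype.ext
    have h1 := aeval_intertwine (LinearMap.range (T - 1)).subtype S T (fun w => rfl) f w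
    rw [Submodule.subtype_apply, Submodule.subtype_apply] at h1
    rw [h1]
    obtain ⟨u, hu⟩ := w.2
    rw [← hu]
    have := congrArg (fun g : Module.End F V => g u) hfT
    exact this
  obtain ⟨M₀, hM₀iso, hM₀card⟩ := mono_core hH β S S' f e k hodd
    (fun u v => by rw [hβ, hβ, hsymm]) hβnd hS'S
    (fun u v => by rw [hβ, hβ, hSa, hS'a, hadj]) hf hdeg he hrev hfS hrank
  -- the decomposition
  have hd : Disjoint (LinearMap.range (T - 1)) (LinearMap.ker (T - 1)) := by
    rw [Submodule.disjoint_def]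
    exact hdisj
  have hcompl : IsCompl (LinearMap.range (T - 1)) (LinearMap.ker (T - 1)) := by
    refine ⟨hd, codisjoint_iff.2 ?_⟩
    apply Submodule.eq_top_of_disjoint
    · exact (LinearMap.finrank_range_add_finrank_ker (T - 1)).ge
    · exact hd
  let E : (LinearMap.range (T - 1) × LinearMap.ker (T - 1)) ≃ₗ[F] V :=
    Submodule.prodEquivOfIsCompl _ _ hcompl
  have hE : ∀ x, E x = (x.1 : V) + (x.2 : V) := fun x => rfl
  let Φ : (LinearMap.range (T - 1) ≃ₗ[F] LinearMap.range (T - 1)) →* (V ≃ₗ[F] V) :=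
    { toFun := fun m => (E.symm.trans (m.prodCongr (LinearEquiv.refl F _))).trans E
      map_one' := by
        apply LinearEquiv.ext
        intro v
        simp
      map_mul' := by
        intro m m'
        apply LinearEquiv.ext
        intro v
        simp }
  have hΦ : ∀ (m : LinearMap.range (T - 1) ≃ₗ[F] LinearMap.range (T - 1)) x,
      Φ m (E x) = E (m x.1, x.2) := by
    intro m x
    show E ((m.prodCongr (LinearEquiv.refl F _)) (E.symm (E x))) = _
    rw [LinearEquiv.symm_apply_apply]
    rfl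
  have hΦinj : Function.Injective Φ := by
    intro m m' hmm
    apply LinearEquiv.ext
    intro r
    have h1 := hΦ m (r, 0)
    have h2 := hΦ m' (r, 0)
    rw [hmm, h2] at h1
    have h3 := E.injective h1
    exact (congrArg Prod.fst h3).symm
  refine ⟨M₀.map Φ, ?_, ?_⟩
  · rintro _ ⟨m, hm, rfl⟩ u v
    obtain ⟨⟨r, c⟩, rfl⟩ := E.surjective u
    obtain ⟨⟨r', c'⟩, rfl⟩ := E.surjective v
    rw [hΦ, hΦ, hE, hE, hE, hE]
    simp only [map_add, LinearMap.add_apply]
    rw [horth _ (m r).2 _ c'.2, horth _ r.2 _ c'.2, hsymm (c : V) (m r'),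
      horth _ (m r').2 _ c.2, hsymm (c : V) r', horth _ r'.2 _ c.2]
    have := hM₀iso m hm r r'
    rw [hβ, hβ] at this
    rw [this]
  · rw [← Nat.card_congr (M₀.equivMapOfInjective Φ hΦinj).toEquiv]
    exact hM₀card

/-- **[MBRIDGE]** -/
theorem pkgMono_of (hH : PkgHMono.{u}) : PkgMono.{u} := by
  intro F _ _ n e k Q y f hodd hQ hiso hf hdeg he hrev hfy hrank
  classical
  have h2 : (2 : F) ≠ 0 := by
    intro h
    have h2' : ((2 : ℕ) : F) = 0 := by exact_mod_cast h
    have hch : ringChar F = 2 := CharP.ringChar_of_prime_eq_zero Nat.prime_two h2'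
    have := FiniteField.even_card_of_char_two hch
    rcases hodd with ⟨c, hc⟩
    omega
  let B : LinearMap.BilinForm F (Fin n → F) :=
    LinearMap.mk₂ F (QuadraticMap.polar Q) hQ.polar_bilinear.add_left
      hQ.polar_bilinear.smul_left hQ.polar_bilinear.add_right hQ.polar_bilinear.smul_right
  have hB : ∀ u v, B u v = QuadraticMap.polar Q u v := fun u v => rfl
  have hBQ : ∀ v, B v v = 2 * Q v := by
    intro v
    rw [hB, QuadraticMap.polar]
    have h1 : v + v = (2 : F) • v := (two_smul F v).symm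
    rw [h1, hQ.smul]
    ring
  let T : Module.End F (Fin n → F) := Matrix.toLin' (y : Matrix (Fin n) (Fin n) F)
  let T' : Module.End F (Fin n → F) :=
    Matrix.toLin' ((y⁻¹ : GL (Fin n) F) : Matrix (Fin n) (Fin n) F)
  have hTa : ∀ v, T v = (y : Matrix (Fin n) (Fin n) F) *ᵥ v := fun v => rfl
  have hTT' : T * T' = 1 := by
    show Matrix.toLin' _ ∘ₗ Matrix.toLin' _ = LinearMap.id
    rw [← Matrix.toLin'_mul, Units.mul_inv, Matrix.toLin'_one]
  have hT'T : T' * T = 1 := by
    show Matrix.toLin' _ ∘ₗ Matrix.toLin' _ = LinearMap.id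
    rw [← Matrix.toLin'_mul, Units.inv_mul, Matrix.toLin'_one]
  have hiso' : ∀ u v, B (T u) (T v) = B u v := by
    intro u v
    rw [hB, hB, QuadraticMap.polar, QuadraticMap.polar, hTa, hTa, ← Matrix.mulVec_add,
      hiso, hiso, hiso]
  have hT1 : T - 1 = Matrix.toLin' (sh y 1) := by
    show Matrix.toLin' _ - LinearMap.id = _
    rw [sh, one_smul, map_sub, Matrix.toLin'_one]
  have hTf : aeval T f = Matrix.toLin' (pv f y) := by
    have := Polynomial.aeval_algHom_apply
      (Matrix.toLinAlgEquiv' : Matrix (Fin n) (Fin n) F ≃ₐ[F] _).toAlgHom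
      (y : Matrix (Fin n) (Fin n) F) f
    exact this
  have hfT : aeval T f * (T - 1) = 0 := by
    rw [hTf, hT1]
    show Matrix.toLin' _ ∘ₗ Matrix.toLin' _ = 0
    rw [← Matrix.toLin'_mul, hfy, map_zero]
  have hrank' : finrank F (LinearMap.range (T - 1)) = k * (2 * e) := by
    rw [hT1]
    exact hrank
  have hsymm : ∀ u v, B u v = B v u := fun u v => by
    rw [hB, hB, QuadraticMap.polar_comm]
  have hnd : ∀ u, u ≠ 0 → ∃ v, B u v ≠ 0 := fun u hu => (hQ.nondegenerate u hu).2
  obtain ⟨M, hMiso, hMcard⟩ := mono_lin hH B T T' f e k hodd hsymm hnd hTT' hT'T hiso' hf hdeg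
    he hrev hfT hrank'
  let Ψ : GL (Fin n) F ≃* ((Fin n → F) ≃ₗ[F] (Fin n → F)) :=
    Matrix.GeneralLinearGroup.toLin.trans
      (LinearMap.GeneralLinearGroup.generalLinearEquiv F (Fin n → F))
  have hΨ : ∀ (g : GL (Fin n) F) (v : Fin n → F),
      Ψ g v = (g : Matrix (Fin n) (Fin n) F) *ᵥ v := fun g v => rfl
  refine ⟨M.map Ψ.symm.toMonoidHom, ?_, ?_⟩
  · rintro _ ⟨m, hm, rfl⟩ v
    have h1 : ((Ψ.symm.toMonoidHom m : GL (Fin n) F) : Matrix (Fin n) (Fin n) F) *ᵥ v = m v := by
      rw [← hΨ]
      show Ψ (Ψ.symm m) v = m v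
      rw [MulEquiv.apply_symm_apply]
    rw [h1]
    have h3 := hMiso m hm v v
    rw [hBQ, hBQ] at h3
    exact mul_left_cancel₀ h2 h3
  · rw [← Nat.card_congr (M.equivMapOfInjective Ψ.symm.toMonoidHom Ψ.symm.injective).toEquiv]
    exact hMcard

end Cfsg.Agent.Lib.Helper38.QSim
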