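import Mathlib
import Cfsg.Agent.Lib.Helper58.QSim.MonoDefs

/-!
# Project QSim (S5981): package [NORM]
-/

set_option autoImplicit false

namespace Cfsg.Agent.Lib.Helper38.QSim

open Polynomial Cfsg.Agent.Lib.Helper58.QSim

universe u

theorem pkgNorm : PkgNorm.{u} := by
  intro K _ _ σ Q₀ hodd hcard hσσ hσne
  classical
  -- characteristic is not 2
  have h2 : (2 : K) ≠ 0 := by
    intro h
    have h2' : ((2 : ℕ) : K) = 0 := by exact_mod_cast h
    have hch : ringChar K = 2 := CharP.ringChar_of_prime_eq_zero Nat.prime_two h2'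
    have := FiniteField.even_card_of_char_two hch
    rcases hodd with ⟨k, hk⟩
    omega
  obtain ⟨a₀, ha₀⟩ := hσne
  -- the anti-fixed element
  have hb : ∃ b : K, b ≠ 0 ∧ σ b = -b := by
    refine ⟨a₀ - σ a₀, ?_, ?_⟩
    · intro h
      apply ha₀
      exact (sub_eq_zero.1 h).symm
    · rw [map_sub, hσσ]
      ring
  obtain ⟨b, hb0, hσb⟩ := hb
  -- the fixed field
  let K₀ : Subfield K := (σ : K →+* K).eqLocusField (RingHom.id K)
  have hmem : ∀ x : K, x ∈ K₀ ↔ σ x = x := fun x => Iff.rfl
  have hfix : ∀ x : K₀, σ (x : K) = x := fun x => x.2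
  let _ : Fintype K₀ := Fintype.ofFinite _
  -- K₀ × K₀ ≃ K
  have hbij : Function.Bijective (fun p : K₀ × K₀ => (p.1 : K) + (p.2 : K) * b) := by
    constructor
    · rintro ⟨s, t⟩ ⟨s', t'⟩ h
      have h1 : (s : K) + (t : K) * b = (s' : K) + (t' : K) * b := h
      have h3 := congrArg σ h1
      simp only [map_add, map_mul, hfix, hσb] at h3
      have hs : (s : K) = s' := by
        have : (2 : K) * (s : K) = 2 * s' := by linear_combination h1 + h3
        exact mul_left_cancel₀ h2 this
      have ht : (t : K) = t' := by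
        have : (2 * b) * (t : K) = (2 * b) * t' := by linear_combination h1 - h3
        exact mul_left_cancel₀ (mul_ne_zero h2 hb0) this
      exact Prod.ext (Subtype.ext hs) (Subtype.ext ht)
    · intro a
      have hs : (a + σ a) / 2 ∈ K₀ := by
        rw [hmem, map_div₀, map_add, hσσ, map_ofNat, add_comm]
      have ht : (a - σ a) / (2 * b) ∈ K₀ := by
        rw [hmem, map_div₀, map_sub, hσσ, map_mul, map_ofNat, hσb]
        field_simp
        ring
      refine ⟨(⟨_, hs⟩, ⟨_, ht⟩), ?_⟩
      show (a + σ a) / 2 + (a - σ a) / (2 * b) * b = a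
      field_simp
      ring
  have hcardK : Nat.card K = Nat.card K₀ * Nat.card K₀ := by
    rw [← Nat.card_prod]
    exact (Nat.card_eq_of_bijective _ hbij).symm
  have hK₀ : Nat.card K₀ = Q₀ := by
    have h1 : Nat.card K₀ ^ 2 = Q₀ ^ 2 := by
      rw [← hcard, ← Nat.card_eq_fintype_card, hcardK, pow_two]
    exact Nat.pow_left_injective (n := 2) (by norm_num) h1
  have hK₀f : Fintype.card K₀ = Q₀ := by rw [← Nat.card_eq_fintype_card, hK₀]
  have hQ₀odd : Q₀ % 2 = 1 := by
    rcases Nat.even_or_odd Q₀ with he | ho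
    · exfalso
      rw [hcard] at hodd
      have : Even (Q₀ ^ 2) := he.pow_of_ne_zero (by norm_num)
      exact (Nat.not_even_iff_odd.2 hodd) this
    · exact Nat.odd_iff.1 ho
  have hQ₀2 : 2 ≤ Q₀ := by
    rw [← hK₀f]
    exact Fintype.one_lt_card
  -- δ = b²
  have hδ : b * b ∈ K₀ := by
    rw [hmem, map_mul, hσb]
    ring
  -- surjectivity of the norm
  have hsurj : ∀ d : K, d ≠ 0 → σ d = d → ∃ m : K, m * σ m = d := by
    intro d hd0 hσd
    let δ : K₀ := ⟨b * b, hδ⟩
    let d' : K₀ := ⟨d, (hmem d).2 hσd⟩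
    have hδ0 : (-δ : K₀) ≠ 0 := by
      rw [neg_ne_zero]
      intro h
      have := congrArg (Subtype.val) h
      exact mul_ne_zero hb0 hb0 this
    have hf2 : degree (X ^ 2 : K₀[X]) = 2 := by
      rw [degree_X_pow]
      rfl
    have hg2 : degree (C (-δ) * X ^ 2 + C 0 * X + C (-d') : K₀[X]) = 2 :=
      degree_quadratic hδ0
    obtain ⟨s, t, hst⟩ := FiniteField.exists_root_sum_quadratic hf2 hg2
      (by rw [hK₀f]; exact hQ₀odd)
    simp only [eval_pow, eval_X, eval_add, eval_mul, eval_C, zero_mul, add_zero] at hst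
    have hst' := congrArg (Subtype.val) hst
    simp only [Subfield.coe_add, Subfield.coe_mul, SubmonoidClass.coe_pow, Subfield.coe_neg,
      ZeroMemClass.coe_zero] at hst'
    have hδv : (δ : K) = b * b := rfl
    have hd'v : (d' : K) = d := rfl
    rw [hδv, hd'v] at hst'
    refine ⟨(s : K) + (t : K) * b, ?_⟩
    rw [map_add, map_mul, hfix, hfix, hσb]
    linear_combination hst'
  refine ⟨?_, hsurj⟩
  -- the norm hom to K₀
  let ν : K →* K₀ :=
    { toFun := fun a => ⟨a * σ a, by rw [hmem, map_mul, hσσ, mul_comm]⟩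
      map_one' := by
        apply Subtype.ext
        show (1 : K) * σ 1 = 1
        rw [map_one, mul_one]
      map_mul' := by
        intro x y
        apply Subtype.ext
        show (x * y) * σ (x * y) = (x * σ x) * (y * σ y)
        rw [map_mul]
        ring }
  have hν : ∀ a : K, ((ν a : K₀) : K) = a * σ a := fun a => rfl
  let N : Kˣ →* K₀ˣ := Units.map ν
  have hNsurj : Function.Surjective N := by
    intro d
    have hd0 : ((d : K₀) : K) ≠ 0 := by
      intro h
      exact d.ne_zero (Subtype.ext h)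
    obtain ⟨m, hm⟩ := hsurj ((d : K₀) : K) hd0 (hfix _)
    have hm0 : m ≠ 0 := by
      intro h
      rw [h, zero_mul] at hm
      exact hd0 hm.symm
    refine ⟨Units.mk0 m hm0, ?_⟩
    apply Units.ext
    apply Subtype.ext
    show m * σ m = ((d : K₀) : K)
    exact hm
  have hker : Nat.card N.ker = Nat.card {u : K // u * σ u = 1} := by
    apply Nat.card_eq_of_bijective
      (fun x : N.ker => (⟨((x : Kˣ) : K), by
        have h1 := x.2
        rw [MonoidHom.mem_ker] at h1
        have h2 := congrArg (fun y : K₀ˣ => ((y : K₀) : K)) h1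
        exact h2⟩ : {u : K // u * σ u = 1}))
    constructor
    · intro x y hxy
      have := congrArg Subtype.val hxy
      exact Subtype.ext (Units.ext this)
    · rintro ⟨u, hu⟩
      have hu0 : u ≠ 0 := by
        intro h
        rw [h, zero_mul] at hu
        exact zero_ne_one hu
      refine ⟨⟨Units.mk0 u hu0, ?_⟩, rfl⟩
      rw [MonoidHom.mem_ker]
      apply Units.ext
      apply Subtype.ext
      show u * σ u = 1
      exact hu
  rw [← hker]
  have h1 := Subgroup.card_mul_index N.ker
  rw [Subgroup.index_ker, MonoidHom.range_eq_top.2 hNsurj, Subgroup.card_top, Nat.card_units,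
    Nat.card_units, hK₀, Nat.card_eq_fintype_card (α := K), hcard] at h1
  have h3 : Q₀ ^ 2 - 1 = (Q₀ + 1) * (Q₀ - 1) := by
    obtain ⟨c, rfl⟩ : ∃ c, Q₀ = c + 1 := ⟨Q₀ - 1, by omega⟩
    simp only [Nat.add_sub_cancel]
    ring_nf
    omega
  rw [h3] at h1
  exact Nat.eq_of_mul_eq_mul_right (by omega) h1

end Cfsg.Agent.Lib.Helper38.QSim
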